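import Cfsg.Agent.H294.U42Grp
import Cfsg.Agent.S0278

/-!
# The 2-rank of `U₄(2)` is 4 (helper294)
-/

set_option autoImplicit false
set_option linter.unusedSectionVars false

namespace Cfsg.Agent.H294.U42

open Matrix Cfsg Cfsg.Agent.Lib.FieldFour
open Cfsg.Agent.LieClassical.HermBasic Cfsg.Agent.LieClassical.HermSiegel

theorem card_su {F : Type*} [Field F] [Fintype F] (hF : Fintype.card F = 2 ^ 2) : Nat.card (Cfsg.SU 4 F 2) = 25920 := by
  have h1 := Cfsg.Agent.S0278.result hF 4 (by omega)
  norm_num [Finset.prod_range_succ, Nat.even_add_one] at h1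
  omega

theorem card_G : Nat.card G = 25920 := card_su rfl

theorem m_mul (l k : F4) : m 1 l 0 1 * m 1 k 0 1 = m 1 (l + k) 0 1 := by
  revert l k; decide +kernel

theorem m_zero : m 1 0 0 1 = 1 := by decide +kernel

theorem m_inj {l k : F4} (h : m 1 l 0 1 = m 1 k 0 1) : l = k := congrFun (congrFun h 0) 1

/-- a Sylow 2-subgroup -/
def TT : Subgroup G where
  carrier := {x | ∃ l, Acts x (m 1 l 0 1)}
  one_mem' := ⟨0, by rw [m_zero]; exact Acts.one⟩
  mul_mem' := by
    rintro a b ⟨l, hl⟩ ⟨k, hk⟩
    exact ⟨l + k, by rw [← m_mul]; exact hl.mul hk⟩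
  inv_mem' := by
    rintro a ⟨l, hl⟩
    obtain ⟨g', h1, h2, -⟩ := hl.inv
    refine ⟨l, ?_⟩
    have h3 : m 1 l 0 1 * m 1 l 0 1 = 1 := by
      rw [m_mul, (by decide : ∀ x : F4, x + x = 0) l, m_zero]
    have h4 : g' = m 1 l 0 1 := by
      calc g' = g' * (m 1 l 0 1 * m 1 l 0 1) := by rw [h3, mul_one]
        _ = m 1 l 0 1 := by rw [← mul_assoc, h2, one_mul]
    rwa [h4] at h1

/-- the homomorphism to `F₄` -/
noncomputable def la : TT →* Multiplicative F4 where
  toFun x := Multiplicative.ofAdd x.2.choose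
  map_one' := by
    have h := (TT.one_mem).choose_spec
    have h1 := h.unique Acts.one
    rw [← m_zero] at h1
    exact congrArg Multiplicative.ofAdd (m_inj h1)
  map_mul' x z := by
    have h := (TT.mul_mem x.2 z.2).choose_spec
    have h1 := h.unique (x.2.choose_spec.mul z.2.choose_spec)
    rw [m_mul] at h1
    exact congrArg Multiplicative.ofAdd (m_inj h1)

theorem la_spec (x : TT) : Acts x (m 1 (la x).toAdd 0 1) := x.2.choose_spec

theorem la_eq {x : TT} {l : F4} (h : Acts x (m 1 l 0 1)) : (la x).toAdd = l := m_inj ((la_spec x).unique h)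

theorem la_ker (x : TT) : la x = 1 ↔ (x : G) ∈ EE := by
  constructor
  · intro h
    have h1 := la_spec x
    rw [h, toAdd_one, m_zero] at h1
    exact h1
  · intro h
    have h1 : Acts (x : G) (m 1 0 0 1) := by rw [m_zero]; exact h
    have h2 := la_eq h1
    exact h2

theorem mm (l : F4) : m 1 l 0 1 * m 1 l 0 1 = 1 := by
  rw [m_mul, (by decide : ∀ x : F4, x + x = 0) l, m_zero]

theorem la_surj : Function.Surjective la := by
  intro l
  refine ⟨⟨lev (m 1 l.toAdd 0 1) (mm _), l.toAdd, acts_lev _ (mm _)⟩, ?_⟩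
  exact la_eq (acts_lev _ (mm _))

theorem EE_le : EE ≤ TT := fun x hx => ⟨0, by rw [m_zero]; exact hx⟩

theorem card_TT : Nat.card TT = 64 := by
  have h1 := Subgroup.card_mul_index la.ker
  have h2 : la.ker = EE.subgroupOf TT := by
    ext x
    rw [MonoidHom.mem_ker, la_ker, Subgroup.mem_subgroupOf]
  have h3 : la.ker.index = 4 := by
    rw [Subgroup.index_ker, MonoidHom.range_eq_top.2 la_surj, Subgroup.card_top]
    exact F4.natCard
  have h4 : Nat.card la.ker = 16 := by
    rw [h2, Nat.card_congr (Subgroup.subgroupOfEquivOfLe EE_le).toEquiv, card_EE]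
  rw [← h1, h3, h4]

/-- an elementary abelian subgroup of `TT` -/
theorem card_le_TT {V : Subgroup G} (hV : ∀ x ∈ V, x * x = 1) (hle : V ≤ TT) : Nat.card V ≤ 16 := by
  by_cases hVE : V ≤ EE
  · rw [← card_EE]
    exact Subgroup.card_le_of_le hVE
  · obtain ⟨v, hv, hvE⟩ := SetLike.not_le_iff_exists.1 hVE
    let f : V →* Multiplicative F4 := la.comp (Subgroup.inclusion hle)
    have h1 := Subgroup.card_mul_index f.ker
    have h2 : f.ker.index ≤ 4 := by
      rw [Subgroup.index_ker]
      have : Finite (Multiplicative F4) := inferInstanceAs (Finite F4)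
      refine (Nat.card_le_card_of_injective (Subtype.val : f.range → Multiplicative F4) Subtype.val_injective).trans ?_
      exact F4.natCard.le
    have hcom : ∀ x ∈ V, x * v = v * x := by
      intro x hx
      have a1 := hV _ (V.mul_mem hx hv)
      have a2 := hV _ hx
      have a3 := hV _ hv
      calc x * v = x * v * (x * x) * (v * v) := by rw [a2, a3, mul_one, mul_one]
        _ = (x * v * x * v) * v⁻¹ * x * v * v := by group
        _ = v * x := by
          rw [show x * v * x * v = x * v * (x * v) by group, a1, one_mul, inv_eq_of_mul_eq_one_left a3, mul_assoc (v * x),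
            a3, mul_one]
    obtain ⟨l, hl⟩ := hle hv
    have hl0 : l ≠ 0 := by
      rintro rfl
      rw [m_zero] at hl
      exact hvE hl
    have h3 : Nat.card f.ker ≤ 4 := by
      refine le_trans ?_ (checkC l hl0)
      rw [← Set.ncard_coe_finset]
      have hE : ∀ x : f.ker, (((x : V) : G)) ∈ EE := fun x => (la_ker _).1 x.2
      rw [← Nat.card_coe_set_eq]
      refine Nat.card_le_card_of_injective (fun x : f.ker => ⟨(toE.symm ⟨_, hE x⟩ : Hm).1, ?_⟩) ?_
      · have h4 := (toE.symm ⟨_, hE x⟩ : Hm).2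
        have h5 : mat (((x : V) : G)) = em (hm (toE.symm ⟨_, hE x⟩ : Hm).1) := by
          have h6 := congrArg (fun z : EE => mat (z : G)) (toE.apply_symm_apply ⟨_, hE x⟩)
          exact h6.symm
        have h7 := hl.conj (hm (toE.symm ⟨_, hE x⟩ : Hm).1)
        rw [← h5, ← mat_mul, ← mat_mul, ← hcom _ (x : V).2, mul_inv_cancel_right, h5] at h7
        have h8 := em_inj h7
        rw [Finset.mem_coe, Finset.mem_filter]
        exact ⟨Finset.mem_univ _, h4.1, h4.2, h8.symm⟩
      · intro a b hab
        have h4 : (toE.symm ⟨_, hE a⟩ : Hm).1 = (toE.symm ⟨_, hE b⟩ : Hm).1 := by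
          simpa only [Subtype.mk.injEq] using hab
        have h5 := toE.symm.injective (Subtype.ext h4)
        have h6 : (((a : V) : G)) = ((b : V) : G) := congrArg (fun z : EE => (z : G)) h5
        exact Subtype.ext (Subtype.ext h6)
    calc Nat.card V = Nat.card f.ker * f.ker.index := h1.symm
      _ ≤ 4 * 4 := Nat.mul_le_mul h3 h2
      _ = 16 := rfl

/-- **The 2-rank is 4.** -/
theorem card_elem_le {V : Subgroup G} (hV : ∀ x ∈ V, x * x = 1) : Nat.card V ≤ 16 := by
  have hp : Fact (Nat.Prime 2) := ⟨Nat.prime_two⟩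
  have hVp : IsPGroup 2 V := fun x => ⟨1, by rw [pow_one, pow_two]; exact Subtype.ext (hV x x.2)⟩
  have hTp : IsPGroup 2 TT := IsPGroup.of_card (n := 6) (by rw [card_TT]; norm_num)
  obtain ⟨Q, hQ⟩ := hVp.exists_le_sylow
  obtain ⟨Q', hQ'⟩ := hTp.exists_le_sylow
  have hc : Nat.card (Q' : Subgroup G) = 64 := by
    rw [Sylow.card_eq_multiplicity, card_G]
    have : (25920 : ℕ).factorization 2 = 6 := by
      rw [show (25920 : ℕ) = 2 ^ 6 * 405 by norm_num, Nat.factorization_mul (by norm_num) (by norm_num),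
        Nat.Prime.factorization_pow Nat.prime_two]
      simp [Nat.factorization_eq_zero_of_not_dvd (show ¬ 2 ∣ 405 by norm_num)]
    rw [this]
    norm_num
  have hT : TT = (Q' : Subgroup G) := by
    apply SetLike.coe_injective
    apply Set.eq_of_subset_of_ncard_le hQ' _ (Set.toFinite _)
    rw [← Nat.card_coe_set_eq, ← Nat.card_coe_set_eq]
    change Nat.card (Q' : Subgroup G) ≤ Nat.card TT
    rw [hc, card_TT]
  obtain ⟨c, hc'⟩ := MulAction.exists_smul_eq G Q Q'
  have h1 : V.map (MulAut.conj c).toMonoidHom ≤ TT := by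
    rw [hT, ← hc', Sylow.coe_subgroup_smul]
    exact Subgroup.map_mono hQ
  have h2 := card_le_TT (V := V.map (MulAut.conj c).toMonoidHom) (by
    rintro _ ⟨x, hx, rfl⟩
    rw [← map_mul, hV x hx, map_one]) h1
  rwa [Subgroup.card_map_of_injective (MulAut.conj c).injective] at h2

end Cfsg.Agent.H294.U42
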